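import Cfsg.Agent.UTwoGen.CaseA

/-!
`SU_n` over the field with four elements is generated by two elements.
-/

set_option autoImplicit false
set_option maxHeartbeats 1000000

namespace CfsgLib.UTwoGen

open Matrix CfsgLib.UGeom

variable {F : Type*} [Field F] [Fintype F] {q n k r : ℕ}

local notation "H" => Cfsg.hermForm n F q
local notation "Vn" => (Fin n → F)
local notation "SU" => Cfsg.SU n F q
local notation "mat" A:max => (((A : SU) : Matrix.SpecialLinearGroup (Fin n) F) : Matrix (Fin n) (Fin n) F)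

theorem Gen.four_facts {C : Conj F q} (G : Gen C) (hq : q = 2) :
    G.lam ^ 3 = 1 ∧ G.lam ≠ 1 ∧ C.σ G.lam = G.lam ^ 2 ∧ 1 + G.lam + G.lam ^ 2 = 0 ∧ (2 : F) = 0 := by
  subst hq
  have h1 : G.lam ≠ 1 := fun e => G.conj_ne (by rw [e, map_one])
  have h3 : G.lam ^ 3 = 1 := by
    have := FiniteField.pow_card_sub_one_eq_one G.lam G.lam_ne
    rwa [C.card] at this
  have h0 : 1 + G.lam + G.lam ^ 2 = 0 := by
    refine (mul_eq_zero.1 ?_).resolve_left (sub_ne_zero.2 h1)
    linear_combination h3
  have hs : C.σ G.lam = G.lam ^ 2 := C.pow _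
  refine ⟨h3, h1, hs, h0, ?_⟩
  have := C.pow (1 + G.lam)
  rw [map_add, map_one, hs] at this
  have h2 : (2 : F) * G.lam = 0 := by linear_combination -this
  exact (mul_eq_zero.1 h2).resolve_right G.lam_ne

theorem two_gen_odd (C : Conj F q) (hn : 3 ≤ n) (hq : q = 2) (hk : 1 ≤ k) (hn3 : n ≠ 3)
    (D : UFrame C n k 1) :
    ∃ x y : SU, Subgroup.closure ({x, y} : Set (Cfsg.SU n F q)) = ⊤ := by
  classical
  obtain ⟨G⟩ := nonempty_gen C
  obtain ⟨h3, h1, hs, h0, h2⟩ := G.four_facts hq
  set l := G.lam with hl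
  have hl0 : l ≠ 0 := G.lam_ne
  have hsl : C.σ l ≠ 0 := G.conj_ne_zero
  set i1 : Fin (k + 1) := ⟨1, by omega⟩ with hi1
  have h01 : (0 : Fin (k + 1)) ≠ i1 := by simp [hi1, Fin.ext_iff]
  set a : Fin (k + 1) → F := Pi.mulSingle 0 l * Pi.mulSingle i1 l⁻¹ with had
  have ha0 : ∀ i, a i ≠ 0 := fun i => by
    simp only [had, Pi.mul_apply, Pi.mulSingle_apply]
    split_ifs <;> simp [hl0]
  obtain ⟨h, hh⟩ := D.exists_T a 1 ha0 (by simp) (by
    rw [show (∏ j, (1 : Fin 1 → F) j) = 1 by simp, mul_one,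
      ← Finset.prod_subset (Finset.subset_univ {0, i1}), Finset.prod_pair h01]
    · simp only [had, Pi.mul_apply, Pi.mulSingle_eq_same, Pi.mulSingle_eq_of_ne h01,
        Pi.mulSingle_eq_of_ne h01.symm, mul_one, one_mul, map_inv₀]
      field_simp
    · intro b _ hb
      simp only [Finset.mem_insert, Finset.mem_singleton, not_or] at hb
      simp [had, hb.1, hb.2])
  obtain ⟨c, hc0, hc⟩ := exists_trace_zero C
  obtain ⟨W, hW⟩ := D.exists_W hc0 hc 1 (by simp) (by simp)
  obtain ⟨y, hy⟩ := D.exists_part (1 : Fin 1 → F)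
  refine ⟨h, y * W, ?_⟩
  set K := Subgroup.closure ({h, y * W} : Set (Cfsg.SU n F q))
  have hhK : h ∈ K := Subgroup.subset_closure (Set.mem_insert _ _)
  have hgK : y * W ∈ K := Subgroup.subset_closure (Set.mem_insert_of_mem _ rfl)
  have hT : ∀ j, D.IsT (W ^ j * h * (W ^ j)⁻¹) ((rot C)^[j] a) 1 := hW.conj_pow hh
  have hit : ∀ j (hj : j + 1 ≤ k), (rot C)^[j] a =
      Pi.mulSingle (⟨j, by omega⟩ : Fin (k + 1)) l * Pi.mulSingle ⟨j + 1, by omega⟩ l⁻¹ := by
    intro j
    induction j with
    | zero => intro _; rfl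
    | succ j ih =>
      intro hj
      have e1 : (⟨j, by omega⟩ : Fin (k + 1)) ≠ Fin.last k := by simp [Fin.ext_iff]; omega
      have e2 : (⟨j + 1, by omega⟩ : Fin (k + 1)) ≠ Fin.last k := by simp [Fin.ext_iff]; omega
      rw [Function.iterate_succ_apply', ih (by omega), rot_mul, rot_single C e1, rot_single C e2]
      congr 2 <;> exact Fin.ext (by simp [Fin.val_add_one, e1, e2])
  have hlast : (rot C)^[k] a 0 = C.σ l := by
    obtain ⟨j, rfl⟩ : ∃ j, k = j + 1 := ⟨k - 1, by omega⟩
    have e1 : (⟨j, by omega⟩ : Fin (j + 1 + 1)) ≠ Fin.last (j + 1) := by simp [Fin.ext_iff]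
    rw [Function.iterate_succ_apply', hit j le_rfl, rot_mul, rot_single C e1,
      show (⟨j + 1, by omega⟩ : Fin (j + 1 + 1)) = Fin.last (j + 1) from rfl, rot_single_last,
      Pi.mul_apply, Pi.mulSingle_eq_same, Pi.mulSingle_eq_of_ne, one_mul, map_inv₀, inv_inv]
    simp [Fin.ext_iff, Fin.val_add_one, e1]
  have hchain : ∀ j, j + 1 ≤ k → W ^ j * h * (W ^ j)⁻¹ ∈ K := by
    intro j
    induction j with
    | zero => intro _; simpa using hhK
    | succ j ih =>
      intro hj
      have := mul_mem (mul_mem hgK (ih (by omega))) (inv_mem hgK)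
      rw [show y * W * (W ^ j * h * (W ^ j)⁻¹) * (y * W)⁻¹ =
        y * (W ^ (j + 1) * h * (W ^ (j + 1))⁻¹) * y⁻¹ by rw [pow_succ']; group,
        hy.comm (hT (j + 1)) (by rw [one_mul]) (by
          rw [hit (j + 1) hj]; simp [Fin.ext_iff])] at this
      exact this
  have hk1 : y * (W ^ k * h * (W ^ k)⁻¹) * y⁻¹ ∈ K := by
    obtain ⟨j, rfl⟩ : ∃ j, k = j + 1 := ⟨k - 1, by omega⟩
    have := mul_mem (mul_mem hgK (hchain j le_rfl)) (inv_mem hgK)
    rwa [show y * W * (W ^ j * h * (W ^ j)⁻¹) * (y * W)⁻¹ =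
        y * (W ^ (j + 1) * h * (W ^ (j + 1))⁻¹) * y⁻¹ by rw [pow_succ']; group] at this
  have hz := UFrame.seed hh (hT k) hy hhK hk1
  have hρ : ∀ j, UFrame.rho C a (1 : Fin 1 → F) j = C.σ l := fun j => by
    simp [UFrame.rho, had, h01]
  set δ := (C.σ l - 1) * (1 - l) with hδ
  have hδ0 : δ ≠ 0 := by
    refine mul_ne_zero (sub_ne_zero.2 fun e => h1 ?_) (sub_ne_zero.2 (Ne.symm h1))
    rw [← C.invol l, e, map_one]
  have hone : ∀ x : F, x • (1 : Fin 1 → F) ∈ D.Z K := by
    let S2 : Subring F :=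
      { carrier := {t | ∀ x : F, x • (1 : Fin 1 → F) ∈ D.Z K → (t * x) • (1 : Fin 1 → F) ∈ D.Z K}
        one_mem' := fun x hx => by rwa [one_mul]
        mul_mem' := fun ht hu x hx => by rw [mul_assoc]; exact ht _ (hu x hx)
        zero_mem' := fun x _ => by rw [zero_mul, zero_smul]; exact zero_mem _
        add_mem' := fun ht hu x hx => by rw [add_mul, add_smul]; exact add_mem (ht x hx) (hu x hx)
        neg_mem' := fun ht x hx => by rw [neg_mul, neg_smul]; exact neg_mem (ht x hx) }
    have hS : S2 = ⊤ := G.sigma_top S2 (fun x hx => by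
      have := UFrame.rho_mem_Mult hh hhK _ hx
      convert this using 1
      funext j
      simp [hρ, hl])
    have hv : δ • (1 : Fin 1 → F) ∈ D.Z K := by
      convert hz using 1
      funext j
      have e1 : C.σ (a 0) = C.σ l := by simp [had, h01]
      simp [UFrame.rho, hlast, C.invol, hδ, e1]
    intro x
    have := (hS ▸ Subring.mem_top (x / δ) : x / δ ∈ S2) _ hv
    rwa [div_mul_cancel₀ x hδ0] at this
  have hall : ∀ v, v ∈ D.Z K := fun v => by
    have : v = v 0 • (1 : Fin 1 → F) := by funext j; simp [Fin.fin_one_eq_zero j]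
    rw [this]; exact hone _
  have h0' : Has C K (D.b (Sum.inl (Sum.inl 0))) 0 :=
    UFrame.has_zero hone (hall 1) (by rw [D.vec_form]; simp)
  have hWK : W ∈ K := (Subgroup.mul_mem_cancel_left K (UFrame.part_mem h0' hy (hall _))).1 hgK
  exact UFrame.top_of_Z D hn (fun e => hn3 e.1) 0 hc0 (fun j => one_ne_zero) hW hWK h0' hall

theorem two_gen_even (C : Conj F q) (hn : 4 ≤ n) (hq : q = 2) (D : UFrame C n k 2) :
    ∃ x y : SU, Subgroup.closure ({x, y} : Set (Cfsg.SU n F q)) = ⊤ := by
  classical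
  obtain ⟨G⟩ := nonempty_gen C
  obtain ⟨h3, h1, hs, h0, h2⟩ := G.four_facts hq
  set l := G.lam with hl
  have hl0 : l ≠ 0 := G.lam_ne
  set μ : Fin 2 → F := fun _ => l ^ 2 with hμd
  set a : Fin (k + 1) → F := Pi.mulSingle 0 l with had
  set du : Fin 2 → F := ![l, l ^ 2] with hdu
  have hdun : ∀ j, du j * C.σ (du j) = 1 := fun j => by
    fin_cases j <;> simp [hdu, map_pow, hs] <;>
      first | linear_combination h3 | linear_combination (l ^ 3 + 1) * h3
  have hdu0 : ∀ j, du j ≠ 0 := fun j e => by simpa [e] using hdun j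
  have ha0 : ∀ i, a i ≠ 0 := fun i => by
    simp only [had, Pi.mulSingle_apply]; split_ifs <;> simp [hl0]
  obtain ⟨h, hh⟩ := D.exists_T a μ ha0 (fun j => by
      simp only [hμd, map_pow, hs]; linear_combination (l ^ 3 + 1) * h3) (by
    rw [Finset.prod_eq_single (0 : Fin (k + 1))]
    · simp only [had, hμd, Pi.mulSingle_eq_same, hs, Fin.prod_univ_two]
      field_simp
      linear_combination h3
    · intro b _ hb; simp [had, hb]
    · simp)
  obtain ⟨c, hc0, hc⟩ := exists_trace_zero C
  obtain ⟨W, hW⟩ := D.exists_W hc0 hc du hdun (by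
    simp only [hdu, Fin.prod_univ_two, Matrix.cons_val_zero, Matrix.cons_val_one]
    linear_combination h3)
  set z : Fin 2 → F := 1 with hz
  have hzz : H (D.vec z) (D.vec z) = 0 := by
    rw [D.vec_form, hz, Fin.sum_univ_two]; simp; linear_combination h2
  set y := D.ee z 0 (by rw [hzz]; simp) with hyd
  have hy : D.Part y z := ⟨0, _, rfl⟩
  refine ⟨h, y * W, ?_⟩
  set K := Subgroup.closure ({h, y * W} : Set (Cfsg.SU n F q))
  have hhK : h ∈ K := Subgroup.subset_closure (Set.mem_insert _ _)
  have hgK : y * W ∈ K := Subgroup.subset_closure (Set.mem_insert_of_mem _ rfl)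
  have hT : ∀ j, D.IsT (W ^ j * h * (W ^ j)⁻¹) ((rot C)^[j] a) μ := hW.conj_pow hh
  have hk1 : y * (W ^ 1 * h * (W ^ 1)⁻¹) * y⁻¹ ∈ K := by
    have := mul_mem (mul_mem hgK hhK) (inv_mem hgK)
    simpa [mul_assoc] using this
  have hρ : UFrame.rho C a μ = fun _ => l := by
    funext j
    simp only [UFrame.rho, had, hμd, Pi.mulSingle_eq_same, hs]
    linear_combination l * h3
  obtain ⟨β, hβ0, hβ⟩ : ∃ β : F, β ≠ 0 ∧ β • z ∈ D.Z K := by
    have hseed := UFrame.seed hh (hT 1) hy hhK hk1
    set ε := C.σ ((rot C)^[1] a 0) * l ^ 2 with hε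
    refine ⟨(l - 1) * (1 - ε), mul_ne_zero (sub_ne_zero.2 h1) (sub_ne_zero.2 fun e => h1 ?_), ?_⟩
    · rcases Nat.eq_zero_or_pos k with hk | hk
      · subst hk
        rw [hε, Function.iterate_one, had, show (0 : Fin 1) = Fin.last 0 from rfl, rot_single_last,
          show (0 : Fin 1) = Fin.last 0 from rfl, Pi.mulSingle_eq_same, map_inv₀, C.invol] at e
        field_simp at e
        exact e.symm
      · rw [hε, had, iter_rot_single C l 1 hk, Pi.mulSingle_eq_of_ne (by simp [Fin.ext_iff]),
          map_one, one_mul] at e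
        linear_combination h3 + l * e
    · convert hseed using 1
      funext j
      have := congrFun hρ j
      simp only [UFrame.rho, hμd] at this
      simp [this, UFrame.rho, hμd, hε, hz]
  have hzz' : ∀ x : F, H (D.vec (x • z)) (D.vec (x • z)) = 0 := fun x => by
    rw [D.vec_smul, form_smul_left, form_smul_right C, hzz, mul_zero, mul_zero]
  have hmul : ∀ (u v α α' : F) (hα hα'),
      D.ee (u • z) α hα * D.ee (v • z) α' hα' =
        D.ee ((u + v) • z) (α + α') (by
          rw [hzz' (u + v), add_zero, map_add]; rw [hzz' u, add_zero] at hα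
          rw [hzz' v, add_zero] at hα'; linear_combination hα + hα') := by
    intro u v α α' hα hα'
    refine eich_mul _ _ _ _ _ _ _ _ _ _ _ hα hα' _ (by rw [← D.vec_add, add_smul]) ?_
    rw [D.vec_smul, D.vec_smul, form_smul_left, form_smul_right C, hzz]; ring
  have hstep : ∀ (u α : F) (hα), D.ee (u • z) α hα ∈ K → ∃ hα', D.ee ((l * u) • z) α hα' ∈ K := by
    intro u α hα hK
    obtain ⟨h', e⟩ := UFrame.conj_ee hh (u • z) α hα
    have e1 : UFrame.rho C a μ * u • z = (l * u) • z := by
      funext j; simp [hρ, hz]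
    have e2 : a 0 * C.σ (a 0) * α = α := by
      simp only [had, Pi.mulSingle_eq_same, hs]; linear_combination α * h3
    have hK' := mul_mem (mul_mem hhK hK) (inv_mem hhK)
    rw [e] at hK'
    simp only [e1, e2] at hK'
    exact ⟨by rwa [hzz'] at *, hK'⟩
  have hscal0 : ∀ u : F, ∃ hα, D.ee (u • z) (0 : F) hα ∈ K := by
    obtain ⟨g, hg, α, hα, rfl⟩ := hβ
    obtain ⟨hα1, hg1⟩ := hstep β α hα hg
    obtain ⟨hα2, hg2⟩ := hstep _ α hα1 hg1
    have hp := mul_mem (mul_mem hg hg1) hg2
    rw [hmul, hmul] at hp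
    have hp' := mul_mem hp hg
    rw [hmul] at hp'
    have e1 : β + l * β + l * (l * β) + β = β := by linear_combination β * h0
    have e2 : α + α + α + α = 0 := by linear_combination (2 * α) * h2
    simp only [e1, e2] at hp'
    intro u
    rcases eq_or_ne u 0 with rfl | hu
    · refine ⟨by rw [hzz']; simp, ?_⟩
      have : D.ee ((0 : F) • z) 0 (by rw [hzz']; simp) = 1 := by
        simp only [zero_smul, UFrame.ee, D.vec_zero]; exact eich_one _ _ _ _
      rw [this]; exact one_mem K
    obtain ⟨i, hi⟩ := CfsgLib.SL3Pres.exists_log G.g G.gen (u / β) (div_ne_zero hu hβ0)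
    have key : ∀ i : ℕ, ∃ hα, D.ee ((l ^ i * β) • z) (0 : F) hα ∈ K := by
      intro i
      induction i with
      | zero => exact ⟨by rw [hzz']; simp, by simpa only [pow_zero, one_mul] using hp'⟩
      | succ i ih =>
        obtain ⟨hα, hK⟩ := ih
        obtain ⟨hα', hK'⟩ := hstep _ _ hα hK
        refine ⟨by rw [hzz']; simp, ?_⟩
        simp only [pow_succ', mul_assoc]
        exact hK'
    have hu' : u = l ^ i * β := by
      rw [hl, Gen.lam, hi, div_mul_cancel₀ u hβ0]
    obtain ⟨hα, hK⟩ := key i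
    refine ⟨by rw [hzz']; simp, ?_⟩
    simp only [hu']
    exact hK
  have hzK : ∀ x : F, x • z ∈ D.Z K := fun x => by
    obtain ⟨hα, hK⟩ := hscal0 x
    exact ⟨_, hK, 0, hα, rfl⟩
  have hyK : y ∈ K := by
    obtain ⟨hα, hK⟩ := hscal0 1
    simpa only [one_smul] using hK
  have hWK : W ∈ K := (Subgroup.mul_mem_cancel_left K hyK).1 hgK
  -- a second vector
  obtain ⟨v, hv, hvne⟩ : ∃ v ∈ D.Z K, v 0 ≠ v 1 := by
    by_cases hk3 : 3 ∣ k + 1
    · have hk : 2 ≤ k := by have := Nat.le_of_dvd (by omega) hk3; omega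
      have hpw : du ^ (k + 2) = du := by
        obtain ⟨t, ht⟩ := hk3
        funext j
        have : du j ^ 3 = 1 := by
          fin_cases j <;> simp [hdu] <;> first | exact h3 | linear_combination (l ^ 3 + 1) * h3
        rw [Pi.pow_apply, show k + 2 = 3 * t + 1 by omega, pow_succ, pow_mul, this, one_pow, one_mul]
      set e0 := D.b (Sum.inl (Sum.inl 0)) with he0
      set i1 : Fin (k + 1) := ⟨1, by omega⟩ with hi1
      set e1 := D.b (Sum.inl (Sum.inl i1)) with he1
      set f1 := D.b (Sum.inl (Sum.inr i1)) with hf1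
      set Z' := D.vec (du * z) with hZ'
      have hZz : H Z' Z' = 0 := by
        rw [hZ', D.vec_form, hz, Fin.sum_univ_two]
        simp only [Pi.mul_apply, Pi.one_apply, mul_one]
        rw [hdun 0, hdun 1]; linear_combination h2
      have hzZ : H (D.vec z) Z' = 1 := by
        rw [hZ', D.vec_form, hz, Fin.sum_univ_two]
        simp [hdu, map_pow, hs]
        linear_combination -h0 + l * h3 + (l ^ 2 + l) * h2
      have g01 : (0 : Fin (k + 1)) ≠ i1 := by simp [hi1, Fin.ext_iff]
      have pe1 : H e0 e1 = 0 := by rw [he0, he1, D.gram, if_neg]; simp [bar]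
      have pf1 : H e0 f1 = 0 := by rw [he0, hf1, D.gram, if_neg]; simp [bar, g01]
      have pf1e0 : H f1 e0 = 0 := by rw [← form_conj C, pf1, map_zero]
      have pe1e0 : H e1 e0 = 0 := by rw [← form_conj C, pe1, map_zero]
      have pfe : H f1 e1 = 1 := by rw [he1, hf1, D.gram, if_pos]; simp [bar]
      have hu := D.vec_inU z
      have hu' := D.vec_inU (du * z)
      -- the two movers
      have hB : eich C e1 Z' 0 (D.b_iso _) (hu' _) (by rw [hZz]; simp) ∈ K := by
        have hA := pow_mem hWK 1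
        have := eich_conj (C := C) (W ^ 1) e0 (D.vec z) 0 (D.b_iso _) (hu _) (by rw [hzz]; simp)
          (by rw [SU_form]; exact D.b_iso _) (by rw [SU_form]; exact hu _)
          (by rw [SU_form, hzz]; simp)
        have hK := mul_mem (mul_mem hA hyK) (inv_mem hA)
        rw [hyd, UFrame.ee, this] at hK
        simp only [he0, (hW.pow_e 1 (by omega)).1, D.W_pow_vec hW] at hK
        simp only [pow_one] at hK
        exact hK
      have hw2 : mat (W ^ (k + 2)) *ᵥ e0 = c • f1 := by
        rw [show k + 2 = 1 + (k + 1) by omega, pow_add, SU_coe_mul, ← Matrix.mulVec_mulVec, he0,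
          hW.pow_wrap.1, Matrix.mulVec_smul, (hW.pow_e 1 (by omega)).2]
      obtain ⟨γ, hγ0, hγz, hγu, hA⟩ : ∃ γ : F, γ ≠ 0 ∧ ∃ (h1 : H (γ • Z') f1 = 0)
          (h2 : (0 : F) + C.σ 0 + H (γ • Z') (γ • Z') = 0),
          eich C f1 (γ • Z') 0 (D.b_iso _) h1 h2 ∈ K := by
        refine ⟨C.σ c, (map_ne_zero C.σ).2 hc0, by rw [form_smul_left, hu', mul_zero],
          by rw [form_smul_left, form_smul_right C, hZz]; simp, ?_⟩
        have hA := pow_mem hWK (k + 2)
        have hiso : H (c • f1) (c • f1) = 0 := by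
          rw [form_smul_left, form_smul_right C, hf1, D.b_iso, mul_zero, mul_zero]
        have hzf : H Z' (c • f1) = 0 := by rw [form_smul_right C, hu', mul_zero]
        have h00 : (0 : F) + C.σ 0 + H Z' Z' = 0 := by rw [hZz]; simp
        have := eich_conj (C := C) (W ^ (k + 2)) e0 (D.vec z) 0 (D.b_iso _) (hu _) (by rw [hzz]; simp)
          (by rw [SU_form]; exact D.b_iso _) (by rw [SU_form]; exact hu _)
          (by rw [SU_form, hzz]; simp)
        have hK := mul_mem (mul_mem hA hyK) (inv_mem hA)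
        rw [hyd, UFrame.ee, this] at hK
        simp only [hw2, D.W_pow_vec hW, hpw] at hK
        rw [eich_smul c f1 Z' 0 (D.b_iso _) hiso hzf (by rw [form_smul_left, hu', mul_zero]) h00
          (by rw [form_smul_left, form_smul_right C, hZz]; simp)] at hK
        simp only [mul_zero] at hK
        exact hK
      -- move the first vector
      set A := eich C f1 (γ • Z') 0 (D.b_iso _) hγz hγu with hAd
      set t := -C.σ γ with ht
      have hAe : mat A *ᵥ e0 = e0 := by
        rw [hAd, eich_mulVec, pf1, form_smul_right C, ← form_conj C Z' e0, hu']; simp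
      have hAz : mat A *ᵥ D.vec z = D.vec z + t • f1 := by
        rw [hAd, eich_mulVec, hu, form_smul_right C, hzZ, ht]; simp
      have hfz : H f1 (D.vec z) = 0 := by rw [← form_conj C, hu, map_zero]
      have hff : H f1 f1 = 0 := D.b_iso _
      have hX : ∃ (h1 : H (t • f1) e0 = 0) (h2 : (0 : F) + C.σ 0 + H (t • f1) (t • f1) = 0),
          eich C e0 (t • f1) 0 (D.b_iso _) h1 h2 ∈ K := by
        refine ⟨by rw [form_smul_left, pf1e0, mul_zero],
          by rw [form_smul_left, form_smul_right C, hff]; simp, ?_⟩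
        have h' := eich_conj (C := C) A e0 (D.vec z) 0 (D.b_iso _) (hu _) (by rw [hzz]; simp)
          (by rw [SU_form]; exact D.b_iso _) (by rw [SU_form]; exact hu _)
          (by rw [SU_form, hzz]; simp)
        have hK := mul_mem (mul_mem hA hyK) (inv_mem hA)
        rw [hyd, UFrame.ee, h'] at hK
        simp only [hAe, hAz] at hK
        have hyi := inv_mem hyK
        obtain ⟨g1, g2, ge⟩ := eich_inv (C := C) e0 (D.vec z) 0 (D.b_iso _) (hu _)
          (by rw [hzz]; simp)
        rw [hyd, UFrame.ee, ge] at hyi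
        have hK' := mul_mem hK hyi
        rw [eich_mul e0 _ _ (t • f1) _ _ 0 (D.b_iso _) _ g1
          (by rw [form_smul_left, pf1e0, mul_zero]) _ g2
          (by rw [form_smul_left, form_smul_right C, hff]; simp) (by abel)
          (by rw [← neg_one_smul F (D.vec z), form_smul_left, form_add_right C, form_smul_right C,
            hzz, ← form_conj C f1 (D.vec z), hfz]; simp)] at hK'
        exact hK'
      obtain ⟨x1, x2, hXK⟩ := hX
      set B := eich C e1 Z' 0 (D.b_iso _) (hu' _) (by rw [hZz]; simp) with hBd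
      have hBe : mat B *ᵥ e0 = e0 := by
        rw [hBd, eich_mulVec, pe1, ← form_conj C Z' e0, hu']; simp
      have hBf : mat B *ᵥ (t • f1) = t • f1 + t • Z' := by
        rw [Matrix.mulVec_smul, hBd, eich_mulVec, pfe, ← form_conj C Z' f1, hu']; simp [smul_add]
      have h' := eich_conj (C := C) B e0 (t • f1) 0 (D.b_iso _) x1 x2
          (by rw [SU_form]; exact D.b_iso _) (by rw [SU_form]; exact x1) (by rw [SU_form]; exact x2)
      have hK := mul_mem (mul_mem hB hXK) (inv_mem hB)
      rw [h'] at hK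
      simp only [hBe, hBf] at hK
      obtain ⟨g1, g2, ge⟩ := eich_inv (C := C) e0 (t • f1) 0 (D.b_iso _) x1 x2
      have hXi := inv_mem hXK
      rw [ge] at hXi
      have hK' := mul_mem hK hXi
      rw [eich_mul e0 _ _ (D.vec (t • (du * z))) _ _ 0 (D.b_iso _) _ g1 (D.vec_inU _ _) _ g2
        (by rw [D.vec_smul, ← hZ', form_smul_left, form_smul_right C, hZz]; simp)
        (by rw [D.vec_smul, ← hZ']; abel)
        (by rw [← neg_one_smul F (t • f1), form_smul_left, form_add_right C, form_smul_left,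
            form_smul_right C, hff, form_smul_left, form_smul_right C, ← form_conj C Z' f1, hu']
            simp)] at hK'
      refine ⟨t • (du * z), ⟨_, hK', 0, _, rfl⟩, ?_⟩
      simp only [Pi.smul_apply, Pi.mul_apply, smul_eq_mul, hz, Pi.one_apply, mul_one, hdu,
        Matrix.cons_val_zero, Matrix.cons_val_one]
      intro e
      have := mul_left_cancel₀ (by rw [ht]; exact neg_ne_zero.2 ((map_ne_zero C.σ).2 hγ0)) e
      exact h1 (mul_left_cancel₀ hl0 (by rw [mul_one]; linear_combination -this))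
    · set j := (k + 1) + (k + 1) with hj
      have he : mat (W ^ j) *ᵥ D.b (Sum.inl (Sum.inl 0)) =
          (c * (C.σ c)⁻¹) • D.b (Sum.inl (Sum.inl 0)) := by
        rw [hj, pow_add, SU_coe_mul, ← Matrix.mulVec_mulVec, hW.pow_wrap.1, Matrix.mulVec_smul,
          hW.pow_wrap.2, smul_smul]
      set t := c * (C.σ c)⁻¹ with ht
      set v := C.σ t • (du ^ j * z) with hvd
      have h' := eich_conj (C := C) (W ^ j) (D.b (Sum.inl (Sum.inl 0))) (D.vec z) 0 (D.b_iso _)
          (D.vec_inU z _) (by rw [hzz]; simp) (by rw [SU_form]; exact D.b_iso _)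
          (by rw [SU_form]; exact D.vec_inU z _) (by rw [SU_form, hzz]; simp)
      have hK := mul_mem (mul_mem (pow_mem hWK j) hyK) (inv_mem (pow_mem hWK j))
      rw [hyd, UFrame.ee, h'] at hK
      simp only [he, D.W_pow_vec hW] at hK
      have hq0 : (0 : F) + C.σ 0 + H (D.vec (du ^ j * z)) (D.vec (du ^ j * z)) = 0 := by
        rw [← D.W_pow_vec hW, SU_form, hzz]; simp
      rw [eich_smul t _ (D.vec (du ^ j * z)) 0 (D.b_iso _)
        (by rw [form_smul_left, form_smul_right C, D.b_iso, mul_zero, mul_zero])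
        (by rw [form_smul_right C, D.vec_inU, mul_zero])
        (by rw [form_smul_left, D.vec_inU, mul_zero]) hq0
        (by rw [form_smul_left, form_smul_right C]; simp only [zero_add, map_zero, mul_zero] at hq0 ⊢
            rw [hq0, mul_zero, mul_zero])] at hK
      simp only [mul_zero] at hK
      have hv0 : (0 : F) + C.σ 0 + H (D.vec v) (D.vec v) = 0 := by
        rw [hvd, D.vec_smul, form_smul_left, form_smul_right C]
        simp only [zero_add, map_zero] at hq0 ⊢
        rw [hq0, mul_zero, mul_zero]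
      refine ⟨v, ⟨_, hK, 0, hv0, ?_⟩, ?_⟩
      · simp only [UFrame.ee, hvd, D.vec_smul]
      · have ht0 : C.σ t ≠ 0 := (map_ne_zero C.σ).2 (mul_ne_zero hc0
          (inv_ne_zero ((map_ne_zero C.σ).2 hc0)))
        simp only [hvd, Pi.smul_apply, Pi.mul_apply, Pi.pow_apply, smul_eq_mul, hz, Pi.one_apply,
          mul_one, hdu, Matrix.cons_val_zero, Matrix.cons_val_one]
        intro e
        have e' := mul_left_cancel₀ ht0 e
        rw [pow_right_comm, sq] at e'
        have e'' : l ^ j = 1 := (mul_eq_left₀ (pow_ne_zero j hl0)).1 e'.symm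
        have := G.pow_eq_one e''
        rw [hq] at this
        omega
  have hvZ : ∀ x : F, x • v ∈ D.Z K := fun x => by
    let S3 : Subring F :=
      { carrier := {t | ∀ x : F, x • v ∈ D.Z K → (t * x) • v ∈ D.Z K}
        one_mem' := fun x hx => by rwa [one_mul]
        mul_mem' := fun ht hu x hx => by rw [mul_assoc]; exact ht _ (hu x hx)
        zero_mem' := fun x _ => by rw [zero_mul, zero_smul]; exact zero_mem _
        add_mem' := fun ht hu x hx => by rw [add_mul, add_smul]; exact add_mem (ht x hx) (hu x hx)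
        neg_mem' := fun ht x hx => by rw [neg_mul, neg_smul]; exact neg_mem (ht x hx) }
    have hl' : l ∈ S3 := fun x hx => by
      have := UFrame.rho_mem_Mult hh hhK _ hx
      convert this using 1
      funext j; simp [hρ, mul_assoc]
    have hS : S3 = ⊤ := G.sigma_top S3 (by rw [← hl, hs]; exact pow_mem hl' 2)
    have := (hS ▸ Subring.mem_top x : x ∈ S3) 1 (by rwa [one_smul])
    rwa [mul_one] at this
  have hall : ∀ w, w ∈ D.Z K := fun w => by
    have hd : v 0 - v 1 ≠ 0 := sub_ne_zero.2 hvne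
    set b := (w 0 - w 1) / (v 0 - v 1) with hb
    have e : w = (w 0 - b * v 0) • z + b • v := by
      funext j
      fin_cases j <;> simp [hz, hb] <;> field_simp <;> ring
    rw [e]; exact add_mem (hzK _) (hvZ _)
  have h0' : Has C K (D.b (Sum.inl (Sum.inl 0))) 0 :=
    UFrame.has_zero (c := Pi.single 0 1) (c' := Pi.single 0 1) (fun x => hall _) (hall _)
      (by rw [D.vec_form]; simp [Fin.sum_univ_two])
  exact UFrame.top_of_Z D (by omega) (fun e => by omega) 0 hc0 hdu0 hW hWK h0' hall

end CfsgLib.UTwoGen
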