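import Cfsg.Agent.UTwoGen.Elements
import Cfsg.Agent.SL3Pres.Rels

/-!
`SU_n` over a field with more than four elements is generated by two elements.
-/

set_option autoImplicit false
set_option maxHeartbeats 1000000

namespace CfsgLib.UTwoGen

open Matrix CfsgLib.UGeom

variable {F : Type*} [Field F] [Fintype F] {q n k r : ℕ}

local notation "SU" => Cfsg.SU n F q

/-- a generator of the multiplicative group with the facts used about it -/
structure Gen (C : Conj F q) where
  g : Fˣ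
  gen : ∀ z : Fˣ, z ∈ Subgroup.zpowers g

namespace Gen

variable {C : Conj F q} (G : Gen C)

/-- the element itself -/
def lam : F := (G.g : F)

theorem lam_ne : G.lam ≠ 0 := G.g.ne_zero

theorem pow_eq_one {e : ℕ} (h : G.lam ^ e = 1) : q * q - 1 ∣ e := by
  have : orderOf G.g ∣ e := orderOf_dvd_of_pow_eq_one (Units.ext (by simpa [lam] using h))
  rwa [orderOf_eq_card_of_forall_mem_zpowers G.gen, Nat.card_units, Nat.card_eq_fintype_card,
    C.card, sq] at this

theorem pow_sq : G.lam ^ (q * q) = G.lam := by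
  rw [← sq q, ← C.card, FiniteField.pow_card]

theorem conj_ne : C.σ G.lam ≠ G.lam := by
  intro h
  rw [C.pow] at h
  have h1 : G.lam ^ (q - 1) = 1 := by
    refine mul_left_cancel₀ G.lam_ne ?_
    rw [← pow_succ', show q - 1 + 1 = q by have := C.two_le; omega, h, mul_one]
  have := Nat.le_of_dvd (by have := C.two_le; omega) (G.pow_eq_one h1)
  have : 2 * q ≤ q * q := Nat.mul_le_mul_right q C.two_le
  have := C.two_le
  omega

theorem conj_ne_zero : C.σ G.lam ≠ 0 := (map_ne_zero C.σ).2 G.lam_ne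

theorem norm_one {x : F} (hx : x ≠ 0) : C.σ x / x * C.σ (C.σ x / x) = 1 := by
  have := (map_ne_zero C.σ).2 hx
  rw [map_div₀, C.invol]
  field_simp

/-- a subring with the norm of the generator contains the fixed field -/
theorem fixed_mem (S : Subring F) (h : G.lam * C.σ G.lam ∈ S) {x : F} (hx : C.σ x = x) : x ∈ S := by
  rcases eq_or_ne x 0 with rfl | hx0
  · exact zero_mem S
  obtain ⟨c, hc0, hc⟩ := CfsgLib.Hermitian.exists_norm C.ne_id C.invol hx0 hx
  obtain ⟨j, hj⟩ := CfsgLib.SL3Pres.exists_log G.g G.gen c hc0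
  have : x = (G.lam * C.σ G.lam) ^ j := by
    rw [← hc, ← hj]
    simp [lam, mul_pow, map_pow, mul_comm]
  rw [this]; exact pow_mem h j

theorem sigma_top (S : Subring F) (h : C.σ G.lam ∈ S) : S = ⊤ := by
  refine eq_top_iff.mpr fun z _ => ?_
  rcases eq_or_ne z 0 with rfl | hz
  · exact zero_mem S
  obtain ⟨j, hj⟩ := CfsgLib.SL3Pres.exists_log G.g G.gen (C.σ z) ((map_ne_zero C.σ).2 hz)
  rw [← C.invol z, ← hj, map_pow]
  exact pow_mem h j

/-- the character on the first coordinate -/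
theorem rho_facts (hq : 3 ≤ q) :
    let ρ := C.σ G.lam * (C.σ G.lam / G.lam)
    ρ ≠ 1 ∧ ρ ≠ C.σ G.lam ∧ ρ ≠ G.lam ∧ C.σ G.lam / (G.lam * G.lam) ≠ 1 ∧
      ∀ S : Subring F, ρ ∈ S → S = ⊤ := by
  intro ρ
  have hl := G.lam_ne
  have hsl := G.conj_ne_zero
  have h9 : 9 ≤ q * q := Nat.mul_le_mul hq hq
  have hρl : ρ * G.lam = G.lam ^ (2 * q) := by
    show C.σ G.lam * (C.σ G.lam / G.lam) * G.lam = _
    rw [mul_assoc, div_mul_cancel₀ _ hl, C.pow, ← pow_add, two_mul]
  have hcube : ρ ^ (2 * q + 1) = G.lam ^ 3 := by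
    refine mul_right_cancel₀ (pow_ne_zero (2 * q + 1) hl) ?_
    rw [← mul_pow, hρl, ← pow_mul, ← pow_add]
    calc G.lam ^ (2 * q * (2 * q + 1)) = (G.lam ^ (q * q)) ^ 4 * G.lam ^ (2 * q) := by
          rw [← pow_mul, ← pow_add]; ring_nf
      _ = _ := by rw [G.pow_sq, ← pow_add]; ring_nf
  have hμ : C.σ G.lam / G.lam ≠ 1 := fun e => G.conj_ne ((div_eq_one_iff_eq hl).1 e)
  refine ⟨fun e => ?_, fun e => hμ ?_, fun e => ?_, fun e => ?_, fun S hS => ?_⟩
  · rw [e, one_pow] at hcube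
    have := Nat.le_of_dvd (by omega) (G.pow_eq_one hcube.symm)
    omega
  · exact (mul_eq_left₀ hsl).1 e
  · have h2 : G.lam ^ (2 * q - 2) = 1 := by
      refine mul_right_cancel₀ (pow_ne_zero 2 hl) ?_
      rw [← pow_add, show 2 * q - 2 + 2 = 2 * q by omega, ← hρl, e, one_mul, sq]
    have := Nat.le_of_dvd (by omega) (G.pow_eq_one h2)
    have : 3 * q ≤ q * q := Nat.mul_le_mul_right q hq
    omega
  · rw [div_eq_one_iff_eq (mul_ne_zero hl hl), C.pow] at e
    have h2 : G.lam ^ (q - 2) = 1 := by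
      refine mul_right_cancel₀ (pow_ne_zero 2 hl) ?_
      rw [← pow_add, show q - 2 + 2 = q by omega, e, one_mul, sq]
    have := Nat.le_of_dvd (by omega) (G.pow_eq_one h2)
    have : 3 * q ≤ q * q := Nat.mul_le_mul_right q hq
    omega
  · refine eq_top_iff.mpr fun z _ => ?_
    have h4 : Fintype.card F ≠ 4 := by rw [C.card, sq]; omega
    have hc := CfsgLib.SL3Pres.cubes_span h4 G.g G.gen
    have hz : z ∈ AddSubgroup.closure
        {y : F | ∃ z e, e ∈ ({1} : Set F) ∧ y = z ^ 3 * e} := hc ▸ AddSubgroup.mem_top z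
    refine (AddSubgroup.closure_le S.toAddSubgroup).mpr ?_ hz
    rintro _ ⟨y, e, rfl, rfl⟩
    show y ^ 3 * 1 ∈ S
    rw [mul_one]
    rcases eq_or_ne y 0 with rfl | hy
    · rw [zero_pow (by norm_num)]; exact zero_mem S
    · obtain ⟨j, hj⟩ := CfsgLib.SL3Pres.exists_log G.g G.gen y hy
      rw [← hj, ← pow_mul, mul_comm, pow_mul]
      refine pow_mem ?_ j
      show G.lam ^ 3 ∈ S
      rw [← hcube]; exact pow_mem hS _

end Gen

theorem nonempty_gen (C : Conj F q) : Nonempty (Gen C) := by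
  obtain ⟨g, hg⟩ := IsCyclic.exists_generator (α := Fˣ)
  exact ⟨⟨g, hg⟩⟩

theorem two_gen_large (C : Conj F q) (hn : 3 ≤ n) (hq : 3 ≤ q) {s : ℕ} (hs : s ≤ 1)
    (D : UFrame C n k (s + 1)) :
    ∃ x y : SU, Subgroup.closure ({x, y} : Set (Cfsg.SU n F q)) = ⊤ := by
  classical
  obtain ⟨G⟩ := nonempty_gen C
  obtain ⟨hρ1, hρσ, hρl, hρ', hρgen⟩ := G.rho_facts hq
  set l := G.lam with hl
  have hl0 : l ≠ 0 := G.lam_ne
  have hsl : C.σ l ≠ 0 := G.conj_ne_zero
  set μ : Fin (s + 1) → F := Pi.mulSingle 0 (C.σ l / l) with hμd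
  set a : Fin (k + 1) → F := Pi.mulSingle 0 l with had
  have hμn : ∀ j, μ j * C.σ (μ j) = 1 := fun j => by
    by_cases hj : j = 0
    · subst hj; rw [hμd, Pi.mulSingle_eq_same]; exact Gen.norm_one hl0
    · simp [hμd, hj]
  have ha0 : ∀ i, a i ≠ 0 := fun i => by
    by_cases hi : i = 0
    · subst hi; rw [had, Pi.mulSingle_eq_same]; exact hl0
    · simp [had, hi]
  have hμ0 : ∀ j, μ j ≠ 0 := fun j e => by simpa [e] using hμn j
  obtain ⟨h, hh⟩ := D.exists_T a μ ha0 hμn (by
    rw [Finset.prod_eq_single (0 : Fin (k + 1)), Finset.prod_eq_single (0 : Fin (s + 1))]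
    · simp only [had, hμd, Pi.mulSingle_eq_same]; field_simp
    · intro b _ hb; simp [hμd, hb]
    · simp
    · intro b _ hb; simp [had, hb]
    · simp)
  obtain ⟨c, hc0, hc⟩ := exists_trace_zero C
  obtain ⟨W, hW⟩ := D.exists_W hc0 hc 1 (by simp) (by simp)
  obtain ⟨y, hy⟩ := D.exists_part (1 : Fin (s + 1) → F)
  refine ⟨h, y * W, ?_⟩
  set K := Subgroup.closure ({h, y * W} : Set (Cfsg.SU n F q))
  have hhK : h ∈ K := Subgroup.subset_closure (Set.mem_insert _ _)
  have hgK : y * W ∈ K := Subgroup.subset_closure (Set.mem_insert_of_mem _ rfl)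
  have hT : ∀ j, D.IsT (W ^ j * h * (W ^ j)⁻¹) ((rot C)^[j] a) μ := hW.conj_pow hh
  have hmid : ∀ j, j < k → ((rot C)^[j + 1] a) 0 = 1 := fun j hj => by
    rw [had, iter_rot_single C l (j + 1) (by omega), Pi.mulSingle_eq_of_ne]
    simp [Fin.ext_iff]
  have hlast : (rot C)^[k + 1] a = Pi.mulSingle (0 : Fin (k + 1)) (C.σ l)⁻¹ := by
    rw [Function.iterate_succ_apply', had, iter_rot_single C l k le_rfl,
      show (⟨k, by omega⟩ : Fin (k + 1)) = Fin.last k from rfl, rot_single_last]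
  -- the first image
  have hk1 : y * (W ^ 1 * h * (W ^ 1)⁻¹) * y⁻¹ ∈ K := by
    have := mul_mem (mul_mem hgK hhK) (inv_mem hgK)
    simpa [mul_assoc] using this
  set ρ := UFrame.rho C a μ with hρd
  have hρ0 : ρ 0 = C.σ l * (C.σ l / l) := by simp [hρd, UFrame.rho, had, hμd]
  have hρj : ∀ j, j ≠ 0 → ρ j = C.σ l := fun j hj => by simp [hρd, UFrame.rho, had, hμd, hj]
  have hz0 := UFrame.seed hh (hT 1) hy hhK hk1
  set z0 := (ρ - 1) * (1 - UFrame.rho C ((rot C)^[1] a) μ) * (1 : Fin (s + 1) → F) with hz0d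
  have hz00 : z0 0 ≠ 0 := by
    rw [hz0d]
    simp only [Pi.mul_apply, Pi.sub_apply, Pi.one_apply, mul_one, hρ0]
    refine mul_ne_zero (sub_ne_zero.2 hρ1) (sub_ne_zero.2 (Ne.symm ?_))
    simp only [UFrame.rho, hμd, Pi.mulSingle_eq_same]
    rcases Nat.eq_zero_or_pos k with hk | hk
    · subst hk
      rw [hlast, Pi.mulSingle_eq_same, map_inv₀, C.invol]
      intro e
      refine hρ' ?_
      rw [← e]; field_simp
    · rw [hmid 0 hk, map_one, one_mul]
      exact fun e => G.conj_ne ((div_eq_one_iff_eq hl0).1 e)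
  -- multipliers
  have hρM : ρ ∈ D.Mult K := UFrame.rho_mem_Mult hh hhK
  let S0 : Subring F := (D.Mult K).comap (Pi.constRingHom (Fin (s + 1)) F)
  have hN : l * C.σ l ∈ S0 := by
    show Function.const _ (l * C.σ l) ∈ D.Mult K
    have e : Function.const _ (l * C.σ l) = ρ * ρ ^ q := by
      funext j
      simp only [Pi.mul_apply, Pi.pow_apply, ← C.pow, Function.const_apply]
      by_cases hj : j = 0
      · subst hj; rw [hρ0, map_mul, map_div₀, C.invol]; field_simp
      · rw [hρj j hj, C.invol, mul_comm]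
    rw [e]; exact mul_mem hρM (pow_mem hρM q)
  have hfix : ∀ x : F, C.σ x = x → Function.const _ x ∈ D.Mult K := fun x hx =>
    G.fixed_mem S0 hN hx
  set m : Fin (s + 1) → F := ρ * ρ - Function.const _ (l + C.σ l) * ρ + Function.const _ (l * C.σ l)
    with hmd
  have hmM : m ∈ D.Mult K := add_mem (sub_mem (mul_mem hρM hρM)
    (mul_mem (hfix _ (by rw [map_add, C.invol, add_comm])) hρM))
    (hfix _ (by rw [map_mul, C.invol, mul_comm]))
  have hm0 : m 0 ≠ 0 := by
    rw [show m 0 = (ρ 0 - l) * (ρ 0 - C.σ l) by simp [hmd]; ring, hρ0]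
    exact mul_ne_zero (sub_ne_zero.2 hρl) (sub_ne_zero.2 hρσ)
  have hmj : ∀ j, j ≠ 0 → m j = 0 := fun j hj => by simp [hmd, hρj j hj]; ring
  have hfirst : ∀ x : F, Pi.single (0 : Fin (s + 1)) x ∈ D.Z K := by
    let S1 : Subring F :=
      { carrier := {t | ∀ x, Pi.single (0 : Fin (s + 1)) x ∈ D.Z K → Pi.single 0 (t * x) ∈ D.Z K}
        one_mem' := fun x hx => by rwa [one_mul]
        mul_mem' := fun ht hu x hx => by rw [mul_assoc]; exact ht _ (hu x hx)
        zero_mem' := fun x _ => by rw [zero_mul, Pi.single_zero]; exact zero_mem _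
        add_mem' := fun ht hu x hx => by rw [add_mul, Pi.single_add]; exact add_mem (ht x hx) (hu x hx)
        neg_mem' := fun ht x hx => by rw [neg_mul, Pi.single_neg]; exact neg_mem (ht x hx) }
    have hS : S1 = ⊤ := hρgen S1 (fun x hx => by
      have := hρM _ hx
      convert this using 1
      funext j
      by_cases hj : j = 0
      · subst hj; simp [hρ0]
      · simp [hj])
    have hv : Pi.single (0 : Fin (s + 1)) (m 0 * z0 0) ∈ D.Z K := by
      have := hmM _ hz0
      convert this using 1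
      funext j
      by_cases hj : j = 0
      · subst hj; simp
      · simp [hj, hmj j hj]
    intro x
    have := (hS ▸ Subring.mem_top (x / (m 0 * z0 0)) : x / (m 0 * z0 0) ∈ S1) _ hv
    rwa [div_mul_cancel₀ x (mul_ne_zero hm0 hz00)] at this
  have h0 : Has C K (D.b (Sum.inl (Sum.inl 0))) 0 :=
    UFrame.has_zero (c := Pi.single 0 1) (c' := Pi.single 0 1)
      (fun x => by rw [← Pi.single_smul]; exact hfirst _) (hfirst 1)
      (by rw [D.vec_form, Finset.sum_eq_single (0 : Fin (s + 1))] <;> simp +contextual)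
  -- the rest
  set c2 : Fin (s + 1) → F := 1 - Pi.single 0 1 with hc2
  obtain ⟨u, hu⟩ := D.exists_part (Pi.single (0 : Fin (s + 1)) (1 : F))
  have huK : u ∈ K := UFrame.part_mem h0 hu (hfirst 1)
  have hy' : D.Part (u⁻¹ * y) c2 := by
    have := hu.inv.mul hy
    rwa [neg_add_eq_sub] at this
  have hg' : u⁻¹ * y * W ∈ K := by rw [mul_assoc]; exact mul_mem (inv_mem huK) hgK
  have hcomm : ∀ j, j < k → u⁻¹ * y * (W ^ (j + 1) * h * (W ^ (j + 1))⁻¹) * (u⁻¹ * y)⁻¹ =
      W ^ (j + 1) * h * (W ^ (j + 1))⁻¹ := fun j hj => hy'.comm (hT _) (by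
      funext i
      by_cases hi : i = 0
      · subst hi; simp [hc2]
      · simp [hc2, hμd, hi]) (hmid j hj)
  have hchain : ∀ j, j ≤ k → W ^ j * h * (W ^ j)⁻¹ ∈ K := by
    intro j
    induction j with
    | zero => intro _; simpa using hhK
    | succ j ih =>
      intro hj
      have := mul_mem (mul_mem hg' (ih (by omega))) (inv_mem hg')
      rw [show u⁻¹ * y * W * (W ^ j * h * (W ^ j)⁻¹) * (u⁻¹ * y * W)⁻¹ =
        u⁻¹ * y * (W ^ (j + 1) * h * (W ^ (j + 1))⁻¹) * (u⁻¹ * y)⁻¹ by rw [pow_succ']; group,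
        hcomm j (by omega)] at this
      exact this
  have hwrap : W ^ (k + 1) * h * (W ^ (k + 1))⁻¹ = (h ^ q)⁻¹ := by
    refine (hT _).ext ?_
    have := (hh.pow q).inv (fun i => pow_ne_zero _ (ha0 i)) (fun j => pow_ne_zero _ (hμ0 j))
    have e1 : (a ^ q)⁻¹ = (rot C)^[k + 1] a := by
      rw [hlast, had]
      funext i
      by_cases hi : i = 0
      · subst hi; simp [C.pow]
      · simp [hi]
    have e2 : (μ ^ q)⁻¹ = μ := by
      funext j
      rw [Pi.inv_apply, Pi.pow_apply, ← C.pow]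
      exact inv_eq_of_mul_eq_one_left (hμn j)
    rwa [e1, e2] at this
  have hk2 : u⁻¹ * y * (W ^ (k + 1) * h * (W ^ (k + 1))⁻¹) * (u⁻¹ * y)⁻¹ ∈ K := by
    have := mul_mem (mul_mem hg' (hchain k le_rfl)) (inv_mem hg')
    rwa [show u⁻¹ * y * W * (W ^ k * h * (W ^ k)⁻¹) * (u⁻¹ * y * W)⁻¹ =
        u⁻¹ * y * (W ^ (k + 1) * h * (W ^ (k + 1))⁻¹) * (u⁻¹ * y)⁻¹ by rw [pow_succ']; group] at this
  have hz2 := UFrame.seed hh (hT (k + 1)) hy' hhK hk2
  rw [hlast] at hz2
  set δ := (C.σ l - 1) * (1 - l⁻¹) with hδ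
  have hrest : ∀ x : F, x • c2 ∈ D.Z K := by
    let S2 : Subring F :=
      { carrier := {t | ∀ x : F, x • c2 ∈ D.Z K → (t * x) • c2 ∈ D.Z K}
        one_mem' := fun x hx => by rwa [one_mul]
        mul_mem' := fun ht hu x hx => by rw [mul_assoc]; exact ht _ (hu x hx)
        zero_mem' := fun x _ => by rw [zero_mul, zero_smul]; exact zero_mem _
        add_mem' := fun ht hu x hx => by rw [add_mul, add_smul]; exact add_mem (ht x hx) (hu x hx)
        neg_mem' := fun ht x hx => by rw [neg_mul, neg_smul]; exact neg_mem (ht x hx) }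
    have hS : S2 = ⊤ := G.sigma_top S2 (fun x hx => by
      have := hρM _ hx
      convert this using 1
      funext j
      by_cases hj : j = 0
      · subst hj; simp [hc2]
      · simp [hc2, hj, hρj j hj, hl, Gen.lam])
    have hv : δ • c2 ∈ D.Z K := by
      convert hz2 using 1
      funext j
      by_cases hj : j = 0
      · subst hj; simp [hc2]
      · simp [hc2, hj, hδ, UFrame.rho, hμd, had, C.invol]
    have hδ0 : δ ≠ 0 := by
      have h1 : l ≠ 1 := fun e => G.conj_ne (by rw [← hl, e, map_one])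
      refine mul_ne_zero (sub_ne_zero.2 fun e => h1 ?_) (sub_ne_zero.2 fun e => h1 ?_)
      · rw [← C.invol l, e, map_one]
      · exact inv_eq_one.1 e.symm
    intro x
    have := (hS ▸ Subring.mem_top (x / δ) : x / δ ∈ S2) _ hv
    rwa [div_mul_cancel₀ x hδ0] at this
  have hall : ∀ v, v ∈ D.Z K := by
    intro v
    have e : v = Pi.single (0 : Fin (s + 1)) (v 0) + v (Fin.last s) • c2 := by
      funext j
      by_cases hj : j = 0
      · subst hj; simp [hc2]
      · have : j = Fin.last s := Fin.ext (by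
          have := j.2; have : j.1 ≠ 0 := fun e => hj (Fin.ext e); simp; omega)
        subst this; simp [hc2, hj]
    rw [e]; exact add_mem (hfirst _) (hrest _)
  have hyK : y ∈ K := UFrame.part_mem h0 hy (hall _)
  have hWK : W ∈ K := (Subgroup.mul_mem_cancel_left K hyK).1 hgK
  exact UFrame.top_of_Z D hn (fun e => by omega) 0 hc0 (fun j => one_ne_zero) hW hWK h0 hall

end CfsgLib.UTwoGen
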